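import Cfsg.Agent.J2Type.ThreeF
import Cfsg.Agent.KFacts.J2.SheetX
import Cfsg.Agent.H394.SqSporBase
import Cfsg.Agent.S1620
import Cfsg.Agent.H257.Cov.Star
import Cfsg.Agent.S0279
import Cfsg.Agent.H124.SUThreeCent
import Cfsg.Agent.ClassicalGeometry.PSLTorus

/-! Facts about the Hall–Janko group (helper921, for S2499). -/

set_option autoImplicit false
set_option linter.style.haveILetI false
set_option linter.unusedSectionVars false

/-!
# Facts about `J₂` (helper921, for S2499)

`Dt z u f d U V H0` : the notation; `exists_dt`, `lb` (index at least 32), `three`, `nine`, `seven`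
(centralizers of elements of order 3, 7; no elements of order 9)
-/


namespace Cfsg.Agent.H921.Cov.JA

open Subgroup Cfsg.Agent.J2Type Cfsg.Agent.J2Type.Base Cfsg.Agent.J2Type.CentU

variable {T : Type*} [Group T]

/-- `f`, `d` of order 3, `H0 ≅ A₅` in `C(u)`, commuting with `d` -/
structure Dt (z u f d : T) (U V H0 : Subgroup T) : Prop where
  F : Fus z u
  L : Full z u f U V H0
  hd : orderOf d = 3
  dV : ∀ v ∈ V, d * v * d⁻¹ ∈ V
  dH : ∀ x ∈ H0, d * x = x * d

theorem exists_dt [Finite T] (h : Spor.IsoJ2 T) : ∃ (z u f d : T) (U V H0 : Subgroup T), Dt z u f d U V H0 := by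
  obtain ⟨z, u, Q, v, ρ, D⟩ := KFacts.J2.Facts.exists_dat_of h
  obtain ⟨f, U, V, H0, L⟩ := CentU.main D.F
  obtain ⟨d, hd, hdV, hdH⟩ := ThreeA.exists_d D.F L
  exact ⟨z, u, f, d, U, V, H0, D.F, L, hd, hdV, hdH⟩

theorem isSimple (h : Spor.IsoJ2 T) : IsSimpleGroup T := by
  obtain ⟨e⟩ := h
  exact (MulEquiv.isSimpleGroup_congr e).2 Cfsg.Agent.S1620.result.1

/-- every proper subgroup has index at least 32 -/
theorem lb [Finite T] (h : Spor.IsoJ2 T) (M : Subgroup T) (hM : M ≠ ⊤) : 32 ≤ M.index := by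
  have := isSimple h
  obtain ⟨t, u, Q, v, ρ, D⟩ := KFacts.J2.Facts.exists_dat_of h
  have hX := KFacts.J2.SheetX.sheetX D
  have hS : H394.SqSheet.Sh t (centralizer ({t} : Set T)) (Q.map (centralizer ({t} : Set T)).subtype) := {
    zz := hX.zz
    z1 := hX.z1
    zR := hX.zR
    RP := hX.RP
    cen := hX.cen
    perf := hX.perf
    R2 := hX.R2
    Rn := hX.Rn
    Rmin := hX.Rmin
    Rna := hX.Rna }
  have hc : Nat.card (Q.map (centralizer ({t} : Set T)).subtype) = 32 := by
    rw [card_map_of_injective (Subtype.val_injective)]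
    exact D.cardQ
  obtain ⟨x, hx⟩ := H394.SqSporBase.exists_moved hM hX.z1
  rcases H394.SqSheet.orbit_bound hS x hx with h3 | ⟨A, hA1, hA2, r, h3, h4⟩
  · rw [hc] at h3
    exact h3
  · have h5 : Nat.card (T ⧸ M) = M.index := rfl
    rw [h5] at h3
    rw [hc] at h4
    have h6 := H394.SqSheet.five_le_relIndex hX.perf hA2
    have h7 : 8 ≤ r := by
      by_contra hlt
      have : r * r ≤ 7 * 7 := Nat.mul_le_mul (by omega) (by omega)
      omega
    have h8 : 5 * 8 ≤ A.relIndex (centralizer ({t} : Set T)) * r := Nat.mul_le_mul h6 h7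
    omega

section

variable {z u f d : T} {U V H0 : Subgroup T} [Finite T] (D : Dt z u f d U V H0)
include D

theorem card_T : Nat.card T = 604800 := Order.card_of_fus D.F

theorem card_C_d : Nat.card (centralizer ({d} : Set T)) = 1080 := ThreeD.card_centralizer_d D.F D.L D.hd D.dH

theorem card_C_f : Nat.card (centralizer ({f} : Set T)) = 36 := ThreeD.card_centralizer_f D.F D.L D.hd D.dH

theorem card_H0 : Nat.card H0 = 60 := ThreeA.card_H0 D.F D.L

theorem conj_sylow_three {x : T} (hx : orderOf x ∣ 27) : ∃ g : T, g * x * g⁻¹ ∈ zpowers d ∨ IsConj f (g * x * g⁻¹) := by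
  haveI : Fact (Nat.Prime 3) := ⟨by norm_num⟩
  obtain ⟨P, hPd, hfP, hdP⟩ := ThreeF.exists_sylow D.F D.L D.hd D.dH
  obtain ⟨-, hcl⟩ := ThreeF.card_normalizer D.F D.L D.hd D.dV D.dH hPd hfP hdP
  have hp : IsPGroup 3 (zpowers x) := by
    rw [IsPGroup.iff_card]
    obtain ⟨k, -, hk⟩ := (Nat.dvd_prime_pow (by norm_num : Nat.Prime 3) (m := 3)).1
      (by simpa using hx : orderOf x ∣ 3 ^ 3)
    exact ⟨k, by rw [Nat.card_zpowers, hk]⟩
  obtain ⟨S, hS⟩ := hp.exists_le_sylow
  obtain ⟨g, hg⟩ := MulAction.exists_smul_eq T S P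
  have h1 : g * x * g⁻¹ ∈ (P : Subgroup T) := by
    rw [← hg, Sylow.smul_def]
    exact ⟨x, hS (mem_zpowers x), rfl⟩
  by_cases h2 : g * x * g⁻¹ ∈ zpowers d
  · exact ⟨g, Or.inl h2⟩
  · exact ⟨g, Or.inr (hcl _ h1 h2)⟩

theorem ord_conj (g x : T) : orderOf (g * x * g⁻¹) = orderOf x :=
  orderOf_injective (MulAut.conj g).toMonoidHom (MulAut.conj g).injective x

/-- the elements of order 3 -/
theorem three {x : T} (hx : orderOf x = 3) : Nat.card (centralizer ({x} : Set T)) = 1080 ∨
    Nat.card (centralizer ({x} : Set T)) = 36 := by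
  obtain ⟨g, h1 | h1⟩ := conj_sylow_three D (x := x) (by rw [hx]; norm_num)
  · left
    have h2 : g * x * g⁻¹ = d ∨ g * x * g⁻¹ = d⁻¹ := by
      rcases ThreeF.mem_zpowers_three D.hd h1 with h3 | h3 | h3
      · exfalso
        have h4 := ord_conj D g x
        rw [h3, orderOf_one, hx] at h4
        norm_num at h4
      · exact Or.inl h3
      · exact Or.inr h3
    have hC : centralizer ({d⁻¹} : Set T) = centralizer ({d} : Set T) := by
      ext y
      rw [mem_centralizer_singleton_iff, mem_centralizer_singleton_iff]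
      constructor
      · intro h
        have := (show Commute y d⁻¹ from h).inv_right
        rwa [inv_inv] at this
      · intro h
        exact (show Commute y d from h).inv_right
    rw [Cent5.card_centralizer_of_isConj (isConj_iff.mpr ⟨g, rfl⟩ : IsConj x (g * x * g⁻¹))]
    rcases h2 with h2 | h2
    · rw [h2, card_C_d D]
    · rw [h2, hC, card_C_d D]
  · right
    rw [Cent5.card_centralizer_of_isConj (isConj_iff.mpr ⟨g, rfl⟩ : IsConj x (g * x * g⁻¹)),
      ← Cent5.card_centralizer_of_isConj h1, card_C_f D]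

/-- no elements of order 9 -/
theorem nine (x : T) : orderOf x ≠ 9 := by
  intro hx
  obtain ⟨g, h1 | h1⟩ := conj_sylow_three D (x := x) (by rw [hx]; norm_num)
  · have h2 : orderOf (g * x * g⁻¹) ∣ orderOf d := orderOf_dvd_of_mem_zpowers h1
    rw [ord_conj D, hx, D.hd] at h2
    norm_num at h2
  · have h2 := SylowFive.orderOf_eq_of_isConj h1
    rw [D.L.f_ord, ord_conj D, hx] at h2
    norm_num at h2

theorem seven {x : T} (hx : orderOf x = 7) : Nat.card (centralizer ({x} : Set T)) = 7 := by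
  haveI : Fact (Nat.Prime 7) := ⟨by norm_num⟩
  have hp : IsPGroup 7 (zpowers x) := IsPGroup.of_card (n := 1) (by rw [Nat.card_zpowers, hx, pow_one])
  obtain ⟨S, hS⟩ := hp.exists_le_sylow
  have hf : (Nat.card T).factorization 7 = 1 := by
    have h2 : Nat.card T ≠ 0 := Nat.card_pos.ne'
    have h3 := ((by norm_num : Nat.Prime 7).dvd_iff_one_le_factorization h2).1 (by rw [card_T D]; norm_num)
    have h4 : ¬ 2 ≤ (Nat.card T).factorization 7 := fun h => by
      have := ((by norm_num : Nat.Prime 7).pow_dvd_iff_le_factorization h2).2 h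
      rw [card_T D] at this
      norm_num at this
    omega
  have hc : Nat.card S = 7 := by rw [S.card_eq_multiplicity, hf, pow_one]
  have hSx : zpowers x = S := by
    apply Subgroup.eq_of_le_of_card_ge hS
    rw [hc, Nat.card_zpowers, hx]
  obtain ⟨h1, -, -⟩ := ThreeF.sylow_seven D.F S
  have h2 : centralizer ({x} : Set T) = S := by
    rw [← h1, ← hSx]
    ext y
    rw [mem_centralizer_singleton_iff, mem_centralizer_iff]
    constructor
    · intro h w hw
      obtain ⟨k, rfl⟩ := mem_zpowers_iff.1 hw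
      exact ((show Commute y x from h).zpow_right k).symm.eq
    · intro h
      exact (h x (mem_zpowers x)).symm
  rw [h2, hc]

end

end Cfsg.Agent.H921.Cov.JA

/-!
# Facts about `J₂`: elements of order 5 and 12, commuting simple subgroups (helper921, for S2499)
-/


namespace Cfsg.Agent.H921.Cov.JA

open Subgroup Cfsg.Agent.J2Type Cfsg.Agent.J2Type.Base Cfsg.Agent.J2Type.CentU Cfsg.Agent.J2Type.SylowFive

/-! ### generalities -/

section gen

variable {T : Type*} [Group T] [Finite T]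

theorem dvd_of_mem {R : Subgroup T} {x : T} (hx : x ∈ R) : orderOf x ∣ Nat.card R := by
  rw [← Subgroup.orderOf_mk x hx]
  exact _root_.orderOf_dvd_natCard _

/-- fixed points of a `p`-subgroup `A` on an invariant subgroup `D` -/
theorem card_fix_mod {p : ℕ} [Fact p.Prime] (A D : Subgroup T) (hA : IsPGroup p A)
    (h : ∀ a ∈ A, ∀ x ∈ D, a * x * a⁻¹ ∈ D) :
    Nat.card D % p = Nat.card (D ⊓ centralizer (A : Set T) : Subgroup T) % p := by
  let _ : MulAction A D := {
    smul := fun a x => ⟨a * x * (a : T)⁻¹, h a a.2 x x.2⟩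
    one_smul := fun x => Subtype.ext (by
      show ((1 : A) : T) * x * ((1 : A) : T)⁻¹ = x
      simp)
    mul_smul := fun a b x => Subtype.ext (by
      show ((a * b : A) : T) * x * ((a * b : A) : T)⁻¹ = a * (b * x * (b : T)⁻¹) * (a : T)⁻¹
      rw [Subgroup.coe_mul]
      group) }
  have h1 := hA.card_modEq_card_fixedPoints D
  have h2 : Nat.card (MulAction.fixedPoints A D) = Nat.card (D ⊓ centralizer (A : Set T) : Subgroup T) := by
    refine Nat.card_congr ⟨fun x => ⟨x.1.1, mem_inf.2 ⟨x.1.2, ?_⟩⟩, fun x => ⟨⟨x.1, (mem_inf.1 x.2).1⟩, ?_⟩,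
      fun _ => rfl, fun _ => rfl⟩
    · rw [mem_centralizer_iff]
      intro a ha
      have h3 : a * (x.1.1 : T) * a⁻¹ = x.1.1 := congrArg Subtype.val (x.2 ⟨a, ha⟩)
      calc a * (x.1.1 : T) = (a * (x.1.1 : T) * a⁻¹) * a := by group
        _ = x.1.1 * a := by rw [h3]
    · rintro ⟨a, ha⟩
      apply Subtype.ext
      show a * (x : T) * a⁻¹ = x
      rw [mem_centralizer_iff.1 (mem_inf.1 x.2).2 a ha]
      group
  rw [h2] at h1
  exact h1

theorem centralizer_zpowers (x : T) : centralizer (zpowers x : Set T) = centralizer ({x} : Set T) := by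
  ext y
  rw [mem_centralizer_singleton_iff, mem_centralizer_iff]
  constructor
  · intro h
    exact (h x (mem_zpowers x)).symm
  · intro h w hw
    obtain ⟨k, rfl⟩ := mem_zpowers_iff.1 hw
    exact ((show Commute y x from h).zpow_right k).symm.eq

end gen

variable {T : Type*} [Group T] {z u f d : T} {U V H0 : Subgroup T} [Finite T] (D : Dt z u f d U V H0)
include D

/-! ### elements of order 5 -/

theorem exists_w : ∃ w ∈ H0, orderOf w = 5 := by
  haveI : Fact (Nat.Prime 5) := ⟨by norm_num⟩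
  obtain ⟨w, hw⟩ := exists_prime_orderOf_dvd_card' (G := H0) 5 (by rw [card_H0 D]; norm_num)
  exact ⟨w, w.2, by rw [orderOf_coe]; exact hw⟩

theorem good {w : T} (hw : w ∈ H0) (h5 : orderOf w = 5) : Good w := Cent5.good_of_mem D.F D.L (card_H0 D) hw h5

theorem exists_P {w : T} (h5 : orderOf w = 5) : ∃ P : Sylow 5 T, w ∈ P := by
  haveI : Fact (Nat.Prime 5) := ⟨by norm_num⟩
  have hp : IsPGroup 5 (zpowers w) := IsPGroup.of_card (n := 1) (by rw [Nat.card_zpowers, h5, pow_one])
  obtain ⟨S, hS⟩ := hp.exists_le_sylow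
  exact ⟨S, hS (mem_zpowers w)⟩

theorem card_C_w {w : T} (hw : w ∈ H0) (h5 : orderOf w = 5) : Nat.card (centralizer ({w} : Set T)) = 300 :=
  Cent5.card_centralizer_five D.F D.L (card_H0 D) (card_T D) hw h5

theorem fifteen {w t : T} (hw : w ∈ H0) (h5 : orderOf w = 5) (ht : orderOf t = 3) (h : t * w = w * t) :
    Nat.card (centralizer ({w} : Set T) ⊓ centralizer ({t} : Set T) : Subgroup T) = 15 := by
  obtain ⟨e⟩ := Cent5.exists_equiv_CQ D.F D.L (card_H0 D) (card_T D) hw h5
  exact ThreeC.card_inf_fifteen e h5 ht h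

theorem card_C_v {v : T} (h5 : orderOf v = 5) (hv : v * z = z * v) :
    Nat.card (centralizer ({v} : Set T)) = 50 := by
  obtain ⟨P, hP⟩ := exists_P D h5
  have h25 : 25 ∣ Nat.card (centralizer ({v} : Set T)) := by
    rw [← card_sylow_five (card_T D) P]
    exact card_dvd_of_le (sylow_le_centralizer (card_T D) P hP)
  have h2 : 2 ∣ Nat.card (centralizer ({v} : Set T)) := by
    have : z ∈ centralizer ({v} : Set T) := mem_centralizer_singleton_iff.2 hv.symm
    have h := dvd_of_mem this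
    rwa [D.F.hz] at h
  have h3 := ThreeD.not_three_dvd D.F h5 hv
  have h4 := FiveFus.not_four_dvd D.F h5 hv
  have h7 : ¬ 7 ∣ Nat.card (centralizer ({v} : Set T)) := by
    intro h
    haveI : Fact (Nat.Prime 7) := ⟨by norm_num⟩
    obtain ⟨y, hy⟩ := exists_prime_orderOf_dvd_card' (G := centralizer ({v} : Set T)) 7 h
    have hy' : orderOf (y : T) = 7 := by rw [orderOf_coe]; exact hy
    have h8 : v ∈ centralizer ({(y : T)} : Set T) :=
      mem_centralizer_singleton_iff.2 (mem_centralizer_singleton_iff.1 y.2).symm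
    have h9 := dvd_of_mem h8
    rw [seven D hy', h5] at h9
    norm_num at h9
  obtain ⟨k, hk⟩ : 50 ∣ Nat.card (centralizer ({v} : Set T)) :=
    Nat.Coprime.mul_dvd_of_dvd_of_dvd (m := 2) (n := 25) (by norm_num) h2 h25
  have hkd : k ∣ 12096 := by
    have h := card_subgroup_dvd_card (centralizer ({v} : Set T))
    rw [hk, card_T D] at h
    exact Nat.dvd_of_mul_dvd_mul_left (by norm_num : 0 < 50) (by simpa using h)
  have key : ∀ k ∈ Nat.divisors 12096, k % 2 ≠ 0 → k % 3 ≠ 0 → k % 7 ≠ 0 → k = 1 := by decide +kernel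
  have hk1 : k = 1 := by
    rw [hk] at h3 h4 h7
    exact key k (Nat.mem_divisors.2 ⟨hkd, by norm_num⟩) (by omega) (by omega) (by omega)
  rw [hk, hk1]

/-- the elements of order 5 -/
theorem five {y : T} (hy : orderOf y = 5) : (∃ w ∈ H0, orderOf w = 5 ∧ IsConj w y) ∨
    ∃ v : T, orderOf v = 5 ∧ v * z = z * v ∧ IsConj v y := by
  obtain ⟨w, hw, hw5⟩ := exists_w D
  obtain ⟨v, hv5, hv⟩ := ThreeD.exists_w0 D.F
  obtain ⟨-, h⟩ := ThreeC.five_data (card_T D) (good D hw hw5) hv5 (FiveFus.real_of_comm D.F hv5 hv)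
    (FiveFus.not_four_dvd D.F hv5 hv)
  have o2 : ∀ x : T, orderOf x = 5 → orderOf (x ^ 2) = 5 := fun x hx => by
    rw [Nat.Coprime.orderOf_pow (by rw [hx]; norm_num), hx]
  rcases h y hy with h | h | h | h
  · exact Or.inl ⟨w, hw, hw5, h⟩
  · exact Or.inl ⟨w ^ 2, H0.pow_mem hw 2, o2 w hw5, h⟩
  · exact Or.inr ⟨v, hv5, hv, h⟩
  · exact Or.inr ⟨v ^ 2, o2 v hv5, ((show Commute v z from hv).pow_left 2).eq, h⟩

theorem card_C_five {y : T} (hy : orderOf y = 5) : Nat.card (centralizer ({y} : Set T)) = 300 ∨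
    Nat.card (centralizer ({y} : Set T)) = 50 := by
  rcases five D hy with ⟨w, hw, hw5, h⟩ | ⟨v, hv5, hv, h⟩
  · left
    rw [← Cent5.card_centralizer_of_isConj h, card_C_w D hw hw5]
  · right
    rw [← Cent5.card_centralizer_of_isConj h, card_C_v D hv5 hv]

theorem P_facts (P : Sylow 5 T) : centralizer ((P : Subgroup T) : Set T) = P ∧ Nat.card P = 25 ∧
    Nat.card (normalizer ((P : Subgroup T) : Set T)) = 300 := by
  obtain ⟨h1, h2, h3, -⟩ := FiveFus.sylow_five D.F P
  exact ⟨h1, h2, h3⟩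

/-- `50` divides the order of the centralizer in the normalizer of `P` -/
theorem card_NC {w : T} (h5 : orderOf w = 5) {P : Sylow 5 T} (hP : w ∈ P)
    (h : Nat.card (normalizer ((P : Subgroup T) : Set T) ⊓ centralizer ({w} : Set T) : Subgroup T) = 50) :
    ¬ IsConj w (w ^ 2) := by
  intro hc
  have h1 := card_O (card_T D) hP
  rw [h, (P_facts D P).2.2] at h1
  have h2 := four_dvd_card (T := O P w) (fun x hx => by rw [← orderOf_eq_of_isConj hx.2]; exact h5)
    (fun x hx => ⟨(P : Subgroup T).pow_mem hx.1 2, hc.trans (hx.2.pow 2)⟩)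
  omega

theorem nsq {w : T} (h5 : orderOf w = 5) : ¬ IsConj w (w ^ 2) := by
  rcases five D h5 with ⟨w', hw, hw5, h⟩ | ⟨v, hv5, hv, h⟩
  · intro hc
    obtain ⟨P, hP⟩ := exists_P D hw5
    refine card_NC D hw5 hP ((good D hw hw5).key (card_T D) hP).2 ?_
    exact h.trans (hc.trans (h.pow 2).symm)
  · intro hc
    obtain ⟨P, hP⟩ := exists_P D hv5
    refine card_NC D hv5 hP ?_ (h.trans (hc.trans (h.pow 2).symm))
    have hle : (P : Subgroup T) ≤ centralizer ({v} : Set T) := sylow_le_centralizer (card_T D) P hP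
    have h50 := card_C_v D hv5 hv
    have h1 : centralizer ({v} : Set T) ≤ normalizer ((P : Subgroup T) : Set T) := by
      rw [← normal_subgroupOf_iff_le_normalizer hle]
      apply normal_of_index_eq_two
      have h2 := ((P : Subgroup T).subgroupOf (centralizer ({v} : Set T))).card_mul_index
      rw [Nat.card_congr (subgroupOfEquivOfLe hle).toEquiv, (P_facts D P).2.1, h50] at h2
      omega
    rw [inf_eq_right.2 h1, h50]

/-! ### elements of order 12 and 6 -/

theorem exists_x12 : ∃ x : T, orderOf x = 12 ∧ IsConj z (x ^ 6) ∧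
    Nat.card (centralizer ({x ^ 4} : Set T)) = 1080 := by
  haveI : Fact (Nat.Prime 3) := ⟨by norm_num⟩
  haveI : Fact (Nat.Prime 2) := ⟨by norm_num⟩
  obtain ⟨c', hc'⟩ := exists_prime_orderOf_dvd_card' (G := centralizer ({z} : Set T)) 3
    (by rw [D.F.cardC]; norm_num)
  obtain ⟨c, rfl, hc, hcz⟩ : ∃ c : T, c = c' ∧ orderOf c = 3 ∧ c * z = z * c :=
    ⟨c', rfl, by rw [orderOf_coe]; exact hc', mem_centralizer_singleton_iff.1 c'.2⟩
  set c : T := (c' : T)
  have h24 := D.F.card24 c hc hcz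
  set E := centralizer ({z} : Set T) ⊓ centralizer ({c} : Set T) with hE
  have hEz : ∀ x ∈ E, x * z = z * x := fun x hx => mem_centralizer_singleton_iff.1 (mem_inf.1 hx).1
  have hEc : ∀ x ∈ E, x * c = c * x := fun x hx => mem_centralizer_singleton_iff.1 (mem_inf.1 hx).2
  have hinv : ∀ x ∈ E, orderOf x = 2 → IsConj z x := fun x hx h2 => D.F.z3 c x hc hcz h2 (hEz x hx) (hEc x hx)
  classical
  obtain ⟨S, hS8⟩ : ∃ S : Subgroup E, Nat.card S = 8 := by
    obtain ⟨S, hS⟩ := Sylow.exists_subgroup_card_pow_prime (G := E) 2 (n := 3) (by rw [h24]; norm_num)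
    exact ⟨S, by rw [hS]; norm_num⟩
  -- an element of order 4
  obtain ⟨q, hqE, hq⟩ : ∃ q ∈ E, orderOf q = 4 := by
    by_contra hno
    push Not at hno
    have hsq : ∀ s : S, ((s : E) : T) * s = 1 := by
      intro s
      have h1 : orderOf ((s : E) : T) ∣ 2 ^ 3 := by
        rw [orderOf_coe, orderOf_coe]
        have := orderOf_dvd_natCard s
        rwa [hS8] at this
      obtain ⟨k, hk, hk'⟩ := (Nat.dvd_prime_pow Nat.prime_two).1 h1
      interval_cases k
      · rw [pow_zero, orderOf_eq_one_iff] at hk'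
        rw [hk', mul_one]
      · rw [← pow_two]
        rw [pow_one] at hk'
        rw [← hk', pow_orderOf_eq_one]
      · exact absurd hk' (hno _ (s : E).2)
      · exfalso
        apply hno (((s : E) : T) ^ 2) (E.pow_mem (s : E).2 2)
        rw [orderOf_pow_of_dvd (by norm_num) (by rw [hk']; norm_num), hk']
        norm_num
    have hcomm : ∀ a b : S, ((a : E) : T) * b = b * a := by
      intro a b
      have h1 := hsq (a * b)
      have h2 := hsq a
      have h3 := hsq b
      simp only [coe_mul] at h1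
      have e : ((a : E) : T) * b = (((a : E) : T) * b)⁻¹ := eq_inv_of_mul_eq_one_left h1
      rw [e, mul_inv_rev, ← eq_inv_of_mul_eq_one_left h2, ← eq_inv_of_mul_eq_one_left h3]
    -- another involution
    obtain ⟨s, hs1, hsz⟩ : ∃ s : S, s ≠ 1 ∧ ((s : E) : T) ≠ z := by
      by_contra hc2
      push Not at hc2
      have h1 : Nat.card S ≤ 2 := by
        rw [show (2 : ℕ) = Nat.card Bool by simp]
        apply Nat.card_le_card_of_injective (fun s : S => decide (s = 1))
        intro a b hab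
        simp only [decide_eq_decide] at hab
        by_cases ha : a = 1
        · rw [ha, (hab.1 ha)]
        · have hb : b ≠ 1 := fun h => ha (hab.2 h)
          apply Subtype.ext
          apply Subtype.ext
          rw [hc2 a ha, hc2 b hb]
      omega
    have hord : ∀ s : S, s ≠ 1 → orderOf ((s : E) : T) = 2 := by
      intro s hs
      apply orderOf_eq_prime
      · rw [pow_two]; exact hsq s
      · intro h
        exact hs (Subtype.ext (Subtype.ext h))
    have hzt : ∀ s : S, s ≠ 1 → IsConj z ((s : E) : T) := fun s hs => hinv _ (s : E).2 (hord s hs)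
    have hsz' : ((s : E) : T) * z = z * s := hEz _ (s : E).2
    have h8 := D.F.card8 _ (hzt s hs1) hsz' hsz
    have h11 := D.F.card11
    -- `7` elements of `S` commute with `s`
    have h7 : Nat.card {y : S // y ≠ 1} = 7 := by
      have := Nat.card_congr (Equiv.sumCompl (fun y : S => y = 1))
      rw [Nat.card_sum, hS8] at this
      have h1 : Nat.card {y : S // y = 1} = 1 := by simp
      have h2 : Nat.card {y : S // ¬ y = 1} = 7 := by omega
      exact h2
    let A := {x : T // IsConj z x ∧ x * z = z * x}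
    have h12 : Nat.card {x : A // ((s : E) : T) * x ≠ x * s} = 8 := by
      rw [← h8]
      exact Nat.card_congr ⟨fun x => ⟨x.1.1, x.1.2.1, x.1.2.2, x.2⟩, fun x => ⟨⟨x.1, x.2.1, x.2.2.1⟩, x.2.2.2⟩,
        fun _ => rfl, fun _ => rfl⟩
    have h13 : Nat.card {x : A // ¬ ((s : E) : T) * x ≠ x * s} + 8 = 11 := by
      have := Nat.card_congr (Equiv.sumCompl (fun x : A => ((s : E) : T) * x ≠ x * s))
      rw [Nat.card_sum] at this
      rw [h12] at this
      have h14 : Nat.card A = 11 := h11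
      omega
    have h15 : Nat.card {y : S // y ≠ 1} ≤ Nat.card {x : A // ¬ ((s : E) : T) * x ≠ x * s} := by
      apply Nat.card_le_card_of_injective (fun y : {y : S // y ≠ 1} =>
        (⟨⟨((y.1 : E) : T), hzt y.1 y.2, hEz _ (y.1 : E).2⟩, by
          rw [not_not]; exact hcomm s y.1⟩ : {x : A // ¬ ((s : E) : T) * x ≠ x * s}))
      intro a b hab
      have h16 : ((a.1 : E) : T) = b.1 := congrArg (fun x => ((x.1 : A) : T)) hab
      exact Subtype.ext (Subtype.ext (Subtype.ext h16))
    omega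
  have hqc : Commute q c := hEc q hqE
  have hx12 : orderOf (q * c) = 12 := by
    rw [hqc.orderOf_mul_eq_mul_orderOf_of_coprime (by rw [hq, hc]; norm_num), hq, hc]
  have q4 : q ^ 4 = 1 := by rw [← hq, pow_orderOf_eq_one]
  have c3 : c ^ 3 = 1 := by rw [← hc, pow_orderOf_eq_one]
  refine ⟨q * c, hx12, ?_, ?_⟩
  · have h1 : (q * c) ^ 6 = q ^ 2 := by
      rw [hqc.mul_pow, show (6 : ℕ) = 4 + 2 by norm_num, pow_add, q4, one_mul,
        show (4 + 2 : ℕ) = 3 * 2 by norm_num, pow_mul, c3, one_pow, mul_one]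
    rw [h1]
    apply hinv _ (E.pow_mem hqE 2)
    rw [orderOf_pow_of_dvd (by norm_num) (by rw [hq]; norm_num), hq]
  · have h1 : (q * c) ^ 4 = c := by
      rw [hqc.mul_pow, q4, one_mul, show (4 : ℕ) = 3 + 1 by norm_num, pow_add, c3, one_mul, pow_one]
    rw [h1]
    rcases three D hc with h | h
    · exact h
    · exfalso
      have h2 : Nat.card E ∣ Nat.card (centralizer ({c} : Set T)) := card_dvd_of_le inf_le_right
      rw [h, h24] at h2
      norm_num at h2

theorem exists_x6 : ∃ x : T, orderOf x = 6 ∧ x ^ 3 = u ∧ orderOf (x ^ 4) = 3 ∧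
    Nat.card (centralizer ({x ^ 4} : Set T)) = 36 := by
  have hfu : Commute u f := (mem_centralizer_singleton_iff.1 (D.L.str.le D.L.f_mem)).symm
  have hu2 : u ^ 2 = 1 := by rw [← D.F.hu, pow_orderOf_eq_one]
  have hf3 : f ^ 3 = 1 := by rw [← D.L.f_ord, pow_orderOf_eq_one]
  have h4 : (u * f) ^ 4 = f := by
    rw [hfu.mul_pow, show (4 : ℕ) = 2 * 2 by norm_num, pow_mul, hu2, one_pow, one_mul,
      show (2 * 2 : ℕ) = 3 + 1 by norm_num, pow_add, hf3, one_mul, pow_one]
  refine ⟨u * f, ?_, ?_, ?_, ?_⟩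
  · rw [hfu.orderOf_mul_eq_mul_orderOf_of_coprime (by rw [D.F.hu, D.L.f_ord]; norm_num), D.F.hu, D.L.f_ord]
  · rw [hfu.mul_pow, hf3, mul_one, show (3 : ℕ) = 2 + 1 by norm_num, pow_add, hu2, one_mul, pow_one]
  · rw [h4, D.L.f_ord]
  · rw [h4, card_C_f D]

end Cfsg.Agent.H921.Cov.JA

/-!
# `J₂`: no subgroup of index 50, no commuting simple subgroups; facts on `PSL₂(8)`, `PSU₃(3)`, `A₇` (helper921)
-/


namespace Cfsg.Agent.H921.Cov.JA

open Subgroup Cfsg.Agent.J2Type Cfsg.Agent.J2Type.Base Cfsg.Agent.J2Type.CentU Cfsg.Agent.J2Type.SylowFive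
open Cfsg.Agent.H257.Cov

section gen

universe u

variable {S : Type u} [Group S]

theorem exists_nine (h : OrdDiv.Real (.psl 2 8) S) : ∃ x : S, orderOf x = 9 := by
  obtain ⟨F, _, _, hF, ⟨e⟩⟩ := h
  obtain ⟨a, -, ha, -, -, hneg, -⟩ := Cfsg.Agent.ClassicalGeometry.NonsplitTorus.exists_torus_TI F
  have hb := Cfsg.Agent.ClassicalGeometry.PSLTorus.orderOf_pr a ha hneg
  rw [hF] at hb
  refine ⟨e.symm (ClassicalGeometry.PSLTorus.pr F a), ?_⟩
  rw [MulEquiv.orderOf_eq, hb]
  rfl

theorem one_class (h : OrdDiv.Real (.psu 3 3) S) (x y : S) (hx : orderOf x = 2) (hy : orderOf y = 2) :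
    IsConj x y := by
  obtain ⟨F, _, _, hF, ⟨e⟩⟩ := h
  have h2 : (2 : F) ≠ 0 := by
    intro h2
    have hc : CharP F 2 := CharTwo.of_one_ne_zero_of_two_eq_zero one_ne_zero h2
    obtain ⟨n, -, hn⟩ := FiniteField.card F 2
    rw [hF] at hn
    have h3 : 2 ∣ 3 ^ 2 := by
      rw [hn]
      exact dvd_pow_self 2 n.2.ne'
    norm_num at h3
  have hZ : center (SU 3 F 3) = ⊥ := by
    rw [← Subgroup.card_eq_one, S0279.result hF 3 le_rfl]
    decide
  have hinj : Function.Injective (QuotientGroup.mk' (center (SU 3 F 3))) := by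
    rw [← MonoidHom.ker_eq_bot_iff, QuotientGroup.ker_mk', hZ]
  obtain ⟨a, ha⟩ := QuotientGroup.mk'_surjective (center (SU 3 F 3)) (e x)
  obtain ⟨b, hb⟩ := QuotientGroup.mk'_surjective (center (SU 3 F 3)) (e y)
  have oa : orderOf a = 2 := by
    rw [← orderOf_injective _ hinj a, ha]
    exact (MulEquiv.orderOf_eq e x).trans hx
  have ob : orderOf b = 2 := by
    rw [← orderOf_injective _ hinj b, hb]
    exact (MulEquiv.orderOf_eq e y).trans hy
  have n1 : ∀ c : SU 3 F 3, orderOf c = 2 → c ≠ 1 := by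
    rintro c hc rfl
    rw [orderOf_one] at hc
    norm_num at hc
  have n2 : ∀ c : SU 3 F 3, orderOf c = 2 → c * c = 1 := fun c hc => by
    rw [← pow_two, ← hc, pow_orderOf_eq_one]
  obtain ⟨g, hg⟩ := H124.SUThree.exists_conj hF h2 (n1 a oa) (n2 a oa) (n1 b ob) (n2 b ob)
  have h3 : IsConj (e x) (e y) := by
    rw [← ha, ← hb, ← hg]
    exact isConj_iff.2 ⟨QuotientGroup.mk' _ g, by rw [map_mul, map_mul, map_inv]⟩
  obtain ⟨c, hc⟩ := isConj_iff.1 h3
  refine isConj_iff.2 ⟨e.symm c, e.injective ?_⟩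
  rw [map_mul, map_mul, map_inv, MulEquiv.apply_symm_apply, hc]

theorem alt7_sq (h : OrdDiv.Real (.alt 7) S) : ∃ s : S, orderOf s = 5 ∧ IsConj s (s ^ 2) := by
  obtain ⟨e⟩ := h
  let a : Equiv.Perm (Fin 7) := c[0, 1, 2, 3, 4]
  let g : Equiv.Perm (Fin 7) := c[1, 2, 4, 3] * c[5, 6]
  have ha : a ∈ alternatingGroup (Fin 7) := by
    rw [Equiv.Perm.mem_alternatingGroup]
    decide +kernel
  have hg : g ∈ alternatingGroup (Fin 7) := by
    rw [Equiv.Perm.mem_alternatingGroup]
    decide +kernel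
  have h1 : g * a * g⁻¹ = a ^ 2 := by decide +kernel
  have h5 : a ^ 5 = 1 := by decide +kernel
  have h6 : a ≠ 1 := by decide +kernel
  let A : alternatingGroup (Fin 7) := ⟨a, ha⟩
  let G : alternatingGroup (Fin 7) := ⟨g, hg⟩
  have h7 : G * A * G⁻¹ = A ^ 2 := Subtype.ext h1
  haveI : Fact (Nat.Prime 5) := ⟨by norm_num⟩
  refine ⟨e.symm A, ?_, ?_⟩
  · rw [MulEquiv.orderOf_eq]
    exact orderOf_eq_prime (Subtype.ext h5) (fun h => h6 (congrArg Subtype.val h))
  · rw [isConj_iff]
    exact ⟨e.symm G, by rw [← map_mul, ← map_inv, ← map_mul, h7, map_pow]⟩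

end gen

variable {T : Type*} [Group T] {z u f d : T} {U V H0 : Subgroup T} [Finite T] (D : Dt z u f d U V H0)
include D

theorem isol7 : Isol T 7 := isol_of_cent (by norm_num) (fun x hx => seven D hx)

theorem no_z {i p : T} (hi : IsConj z i) (hp : orderOf p = 5) (hc : p * i = i * p) {S : Subgroup T}
    (h4 : 4 ∣ Nat.card S) (hS : ∀ x ∈ S, x * p = p * x) : False := by
  obtain ⟨g, rfl⟩ := isConj_iff.1 hi
  have hp' : orderOf (g⁻¹ * p * g) = 5 := by
    have := ord_conj D g⁻¹ p
    rw [inv_inv] at this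
    rw [this, hp]
  have hcz : (g⁻¹ * p * g) * z = z * (g⁻¹ * p * g) := by
    calc (g⁻¹ * p * g) * z = g⁻¹ * (p * (g * z * g⁻¹)) * g := by group
      _ = g⁻¹ * ((g * z * g⁻¹) * p) * g := by rw [hc]
      _ = z * (g⁻¹ * p * g) := by group
  have h50 := card_C_v D hp' hcz
  have hcj : IsConj p (g⁻¹ * p * g) := isConj_iff.2 ⟨g⁻¹, by rw [inv_inv]⟩
  rw [← Cent5.card_centralizer_of_isConj hcj] at h50
  have h1 : Nat.card S ∣ Nat.card (centralizer ({p} : Set T)) :=
    card_dvd_of_le fun x hx => mem_centralizer_singleton_iff.2 (hS x hx)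
  rw [h50] at h1
  have h2 := h4.trans h1
  norm_num at h2

/-- no commuting pair of subgroups of order divisible by 20, one of them simple -/
theorem no_comm {S1 S2 : Subgroup T} (h5 : 5 ∣ Nat.card S1) (h4 : 4 ∣ Nat.card S1) (h5' : 5 ∣ Nat.card S2)
    (h4' : 4 ∣ Nat.card S2) [IsSimpleGroup S2] (hna : ¬ ∀ a b : S2, a * b = b * a)
    (hc : ∀ x ∈ S1, ∀ y ∈ S2, x * y = y * x) : False := by
  haveI : Fact (Nat.Prime 5) := ⟨by norm_num⟩
  haveI : Fact (Nat.Prime 2) := ⟨by norm_num⟩
  obtain ⟨i, hi⟩ := exists_prime_orderOf_dvd_card' (G := S1) 2 ((by norm_num : 2 ∣ 4).trans h4)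
  obtain ⟨p, hp⟩ := exists_prime_orderOf_dvd_card' (G := S1) 5 h5
  obtain ⟨j, hj⟩ := exists_prime_orderOf_dvd_card' (G := S2) 2 ((by norm_num : 2 ∣ 4).trans h4')
  obtain ⟨q, hq⟩ := exists_prime_orderOf_dvd_card' (G := S2) 5 h5'
  rw [← orderOf_coe] at hi hp hj hq
  rcases D.F.cover _ hi with h | h
  · exact no_z D h hq (hc i i.2 q q.2).symm h4 (fun x hx => hc x hx q q.2)
  obtain ⟨g, hg⟩ := isConj_iff.1 h
  let N : Subgroup S2 := (H0.comap (MulAut.conj g⁻¹).toMonoidHom).subgroupOf S2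
  have hN : ∀ y : S2, y ∈ N ↔ g⁻¹ * y * g ∈ H0 := by
    intro y
    show g⁻¹ * (y : T) * g⁻¹⁻¹ ∈ H0 ↔ _
    rw [inv_inv]
  have hC : ∀ y : S2, g⁻¹ * y * g ∈ centralizer ({u} : Set T) := by
    intro y
    rw [mem_centralizer_singleton_iff]
    have h1 : u = g⁻¹ * i * g := by rw [← hg]; group
    rw [h1]
    calc g⁻¹ * (y : T) * g * (g⁻¹ * i * g) = g⁻¹ * (y * i) * g := by group
      _ = g⁻¹ * (i * y) * g := by rw [hc i i.2 y y.2]
      _ = g⁻¹ * i * g * (g⁻¹ * y * g) := by group
  have hNn : N.Normal := by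
    refine ⟨fun n hn x => ?_⟩
    rw [hN] at hn ⊢
    have h1 := D.L.str.conj_mem _ (hC x) _ hn
    have h2 : g⁻¹ * (x : T) * g * (g⁻¹ * n * g) * (g⁻¹ * x * g)⁻¹ = g⁻¹ * ((x * n * x⁻¹ : S2) : T) * g := by
      simp only [coe_mul, coe_inv]
      group
    rwa [h2] at h1
  rcases hNn.eq_bot_or_eq_top with h1 | h1
  · apply hna
    have hsq : ∀ y : S2, y * y = 1 := by
      intro y
      have h2 : y * y ∈ N := by
        rw [hN]
        have h3 := D.L.str.sq_mem _ (hC y)
        have h4 : g⁻¹ * (y : T) * g * (g⁻¹ * y * g) = g⁻¹ * ((y * y : S2) : T) * g := by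
          simp only [coe_mul]
          group
        rwa [h4] at h3
      rw [h1, mem_bot] at h2
      exact h2
    intro a b
    have h2 := hsq (a * b)
    have e : a * b = (a * b)⁻¹ := eq_inv_of_mul_eq_one_left h2
    rw [e, mul_inv_rev, ← eq_inv_of_mul_eq_one_left (hsq a), ← eq_inv_of_mul_eq_one_left (hsq b)]
  · have h2 : j ∈ N := by rw [h1]; exact mem_top _
    rw [hN] at h2
    have h3 : orderOf (g⁻¹ * (j : T) * g) = 2 := by
      have := ord_conj D g⁻¹ (j : T)
      rw [inv_inv] at this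
      rw [this, hj]
    have h4 := D.L.str.invol _ h2 h3
    have h5 : IsConj z (j : T) := h4.trans (isConj_iff.2 ⟨g, by group⟩)
    exact no_z D h5 hp (hc p p.2 j j.2) h4' (fun x hx => (hc p p.2 x hx).symm)

/-! ### index 50 -/

section idx

omit D

/-- number of fixed points on the cosets -/
noncomputable def fx (M : Subgroup T) (g : T) : ℕ := Nat.card (MulAction.fixedBy (T ⧸ M) g)

theorem fx_conj (M : Subgroup T) {g h : T} (hgh : IsConj g h) : fx M h = fx M g := by
  obtain ⟨c, rfl⟩ := isConj_iff.1 hgh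
  refine Nat.card_congr ⟨fun x => ⟨c⁻¹ • x.1, ?_⟩, fun x => ⟨c • x.1, ?_⟩, fun x => ?_, fun x => ?_⟩
  · have h1 := x.2
    rw [MulAction.mem_fixedBy] at h1 ⊢
    rw [mul_smul, mul_smul] at h1
    rw [eq_inv_smul_iff]
    exact h1
  · have h1 := x.2
    rw [MulAction.mem_fixedBy] at h1 ⊢
    rw [mul_smul, mul_smul, inv_smul_smul, h1]
  · exact Subtype.ext (smul_inv_smul _ _)
  · exact Subtype.ext (inv_smul_smul _ _)

theorem fx_one (M : Subgroup T) : fx M 1 = M.index := by
  have : MulAction.fixedBy (T ⧸ M) (1 : T) = Set.univ := by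
    ext x
    simp
  unfold fx
  rw [this]
  exact Nat.card_congr (Equiv.Set.univ _)

/-- Burnside -/
theorem burn (M A : Subgroup T) : Nat.card A ∣ ∑ᶠ a : A, fx M a := by
  classical
  have : Fintype A := Fintype.ofFinite _
  have : Fintype (T ⧸ M) := Fintype.ofFinite _
  have : Fintype (Quotient (MulAction.orbitRel A (T ⧸ M))) := Fintype.ofFinite _
  have h := MulAction.sum_card_fixedBy_eq_card_orbits_mul_card_group A (T ⧸ M)
  rw [finsum_eq_sum_of_fintype]
  have h1 : ∀ a : A, fx M a = Fintype.card (MulAction.fixedBy (T ⧸ M) a) := by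
    intro a
    unfold fx
    rw [Nat.card_eq_fintype_card]
    rfl
  simp only [h1]
  rw [h, Nat.card_eq_fintype_card]
  exact Dvd.intro_left _ rfl

/-- a sum over a group with two classes of nontrivial elements -/
theorem sum_two {A : Subgroup T} {F : A → ℕ} {p : A → Prop} {a b c : ℕ} (h1 : F 1 = c) (hp1 : ¬ p 1)
    (hp : ∀ x, p x → F x = a) (hn : ∀ x, x ≠ 1 → ¬ p x → F x = b) :
    ∑ᶠ x : A, F x = c + Nat.card {x : A // p x} * a + (Nat.card A - 1 - Nat.card {x : A // p x}) * b := by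
  classical
  have : Fintype A := Fintype.ofFinite _
  rw [finsum_eq_sum_of_fintype]
  have e1 : ∀ x, F x = (if x = 1 then c else 0) + (if p x then a else 0) + (if x ≠ 1 ∧ ¬ p x then b else 0) := by
    intro x
    by_cases hx : x = 1
    · subst hx
      simp [h1, hp1]
    · by_cases hpx : p x
      · simp [hx, hpx, hp x hpx]
      · simp [hx, hpx, hn x hx hpx]
  rw [Finset.sum_congr rfl (fun x _ => e1 x), Finset.sum_add_distrib, Finset.sum_add_distrib]
  have s1 : ∑ x : A, (if x = 1 then c else 0) = c := by simp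
  have s2 : ∑ x : A, (if p x then a else 0) = Nat.card {x : A // p x} * a := by
    rw [Finset.sum_ite, Finset.sum_const_zero, add_zero, Finset.sum_const, smul_eq_mul,
      Nat.card_eq_fintype_card, Fintype.card_subtype]
  have s3 : ∑ x : A, (if x ≠ 1 ∧ ¬ p x then b else 0) =
      (Nat.card A - 1 - Nat.card {x : A // p x}) * b := by
    rw [Finset.sum_ite, Finset.sum_const_zero, add_zero, Finset.sum_const, smul_eq_mul]
    congr 1
    have k1 := Finset.card_filter_add_card_filter_not (s := (Finset.univ : Finset A)) (fun x : A => x ≠ 1 ∧ ¬ p x)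
    have k2 : (Finset.univ.filter fun x : A => ¬ (x ≠ 1 ∧ ¬ p x)) =
        insert 1 (Finset.univ.filter fun x : A => p x) := by
      ext x
      simp only [Finset.mem_filter, Finset.mem_univ, true_and, Finset.mem_insert]
      tauto
    rw [k2, Finset.card_insert_of_notMem (by simp [hp1]), Finset.card_univ] at k1
    have k3 : Nat.card {x : A // p x} = (Finset.univ.filter fun x : A => p x).card := by
      rw [Nat.card_eq_fintype_card, Fintype.card_subtype]
    rw [k3, Nat.card_eq_fintype_card]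
    omega
  rw [s1, s2, s3]

/-- an element of order 5 commuting with `s` -/
theorem five_dvd_fx (M : Subgroup T) (h5 : ¬ 5 ∣ Nat.card M) {s v : T} (hv : orderOf v = 5) (hc : v * s = s * v) :
    5 ∣ fx M s := by
  haveI : Fact (Nat.Prime 5) := ⟨by norm_num⟩
  have hcz : ∀ w ∈ zpowers v, w * s = s * w := by
    intro w hw
    obtain ⟨k, rfl⟩ := mem_zpowers_iff.1 hw
    exact ((show Commute v s from hc).zpow_left k).eq
  let _ : MulAction (zpowers v) (MulAction.fixedBy (T ⧸ M) s) := {
    smul := fun w x => ⟨(w : T) • x.1, by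
      have h1 := x.2
      rw [MulAction.mem_fixedBy] at h1 ⊢
      rw [← mul_smul, ← hcz w w.2, mul_smul, h1]⟩
    one_smul := fun x => Subtype.ext (one_smul T _)
    mul_smul := fun a b x => Subtype.ext (mul_smul (a : T) (b : T) _) }
  have hp : IsPGroup 5 (zpowers v) := IsPGroup.of_card (n := 1) (by rw [Nat.card_zpowers, hv, pow_one])
  have h1 := hp.card_modEq_card_fixedPoints (MulAction.fixedBy (T ⧸ M) s)
  have h2 : IsEmpty (MulAction.fixedPoints (zpowers v) (MulAction.fixedBy (T ⧸ M) s)) := by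
    refine ⟨fun x => ?_⟩
    have h3 : v • (x.1.1 : T ⧸ M) = x.1.1 := congrArg Subtype.val (x.2 ⟨v, mem_zpowers v⟩)
    obtain ⟨g, hg⟩ := QuotientGroup.mk_surjective x.1.1
    rw [← hg] at h3
    have h4 : g⁻¹ * v * g ∈ M := by
      have h5 : ((v * g : T) : T ⧸ M) = (g : T ⧸ M) := h3
      have h6 := QuotientGroup.eq.1 h5.symm
      rwa [← mul_assoc] at h6
    have h5' := dvd_of_mem h4
    have h6 : orderOf (g⁻¹ * v * g) = orderOf v := by
      have := orderOf_injective (MulAut.conj g⁻¹).toMonoidHom (MulAut.conj g⁻¹).injective v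
      simpa using this
    rw [h6, hv] at h5'
    exact h5 h5'
  rw [Nat.card_eq_zero.2 (Or.inl h2)] at h1
  exact (Nat.modEq_zero_iff_dvd).1 h1

end idx

theorem burn2 (M : Subgroup T) (hM : M.index = 50) (A : Subgroup T) (hA : ∀ a ∈ A, a * a = 1) :
    Nat.card A ∣ 50 + Nat.card {x : A // IsConj z (x : T)} * fx M z +
      (Nat.card A - 1 - Nat.card {x : A // IsConj z (x : T)}) * fx M u := by
  have hz1 : z ≠ 1 := CentU.z_ne D.F
  have h := burn M A
  have h2 := sum_two (A := A) (F := fun x => fx M (x : T)) (p := fun x => IsConj z (x : T)) (a := fx M z)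
    (b := fx M u) (c := 50) (by
      show fx M ((1 : A) : T) = 50
      rw [coe_one, fx_one, hM]) (fun h => hz1 (isConj_one_left.1 h)) (fun x hx => fx_conj M hx)
    (fun x hx hn => fx_conj M (by
      have h2 : orderOf (x : T) = 2 := orderOf_eq_prime (by rw [pow_two, hA _ x.2])
        (fun h => hx (Subtype.ext h))
      exact (D.F.cover _ h2).resolve_left hn))
  rwa [h2] at h

theorem index_ne_fifty [IsSimpleGroup T] (M : Subgroup T) : M.index ≠ 50 := by
  intro hM
  have hMt : M ≠ ⊤ := by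
    rintro rfl
    rw [index_top] at hM
    norm_num at hM
  have hcM : Nat.card M = 12096 := by
    have h := M.card_mul_index
    rw [hM, card_T D] at h
    omega
  obtain ⟨v, hv5, hv⟩ := ThreeD.exists_w0 D.F
  have h5z : 5 ∣ fx M z := five_dvd_fx M (by rw [hcM]; norm_num) hv5 hv
  have hz1 : z ≠ 1 := CentU.z_ne D.F
  have hu1 : u ≠ 1 := CentU.u_ne D.F
  have h11 : ∀ x : T, x = 1 → ¬ IsConj z x := by
    rintro x rfl h
    exact hz1 (isConj_one_left.1 h)
  -- the group `U`
  have hU := burn2 D M hM U (fun a ha => Cent5.sq_U D.F D.L ha)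
  have cU : Nat.card {x : U // IsConj z (x : T)} = 3 := by
    have h1 : Nat.card {x : U // ¬ x = 1} = 3 := by
      classical
      have := Nat.card_congr (Equiv.sumCompl (fun y : U => y = 1))
      rw [Nat.card_sum, D.L.cardU] at this
      have h1 : Nat.card {y : U // y = 1} = 1 := by simp
      omega
    rw [← h1]
    refine Nat.card_congr (Equiv.subtypeEquivRight fun x => ?_)
    constructor
    · intro h h2
      exact h11 _ (congrArg Subtype.val h2) h
    · intro h
      rcases (D.L.memU x).1 x.2 with h2 | h2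
      · exact absurd (Subtype.ext h2) h
      · exact h2.1
  rw [cU, D.L.cardU] at hU
  -- the group `V`
  have hV := burn2 D M hM V (fun a ha => Cent5.sq_V D.F D.L ha)
  have cV : Nat.card {x : V // IsConj z (x : T)} = 0 := by
    rw [Nat.card_eq_zero]
    left
    refine ⟨fun x => ?_⟩
    have h1 : ((x : V) : T) ≠ 1 := fun h => h11 _ h x.2
    have h2 := Cent5.isConj_of_mem_V D.F D.L x.1.2 h1
    exact D.F.nconj (x.2.trans h2.symm)
  rw [cV, D.L.cardV] at hV
  -- the group `E`
  have hE := burn2 D M hM (E z u) (fun a ha => CentU.sq_E D.F ha)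
  have cE : Nat.card {x : E z u // IsConj z (x : T)} = 3 := by
    rw [← D.F.card3]
    exact Nat.card_congr ⟨fun x => ⟨x.1.1, x.2, (CentU.mem_E.1 x.1.2).1, (CentU.mem_E.1 x.1.2).2⟩,
      fun x => ⟨⟨x.1, CentU.mem_E.2 x.2.2⟩, x.2.1⟩, fun _ => rfl, fun _ => rfl⟩
  rw [cE, CentU.card_E D.F] at hE
  -- the element `z` moves a point
  obtain ⟨x, hx⟩ := H394.SqSporBase.exists_moved hMt hz1
  have hlt : fx M z < 50 := by
    have h1 : fx M z < Nat.card (T ⧸ M) := by
      have h2 : (MulAction.fixedBy (T ⧸ M) z).ncard < (Set.univ : Set (T ⧸ M)).ncard :=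
        Set.ncard_lt_ncard (Set.ssubset_univ_iff.2 fun h => hx (by
          have h3 : x ∈ MulAction.fixedBy (T ⧸ M) z := by rw [h]; trivial
          exact h3)) (Set.toFinite _)
      rw [Set.ncard_univ] at h2
      exact h2
    have h2 : Nat.card (T ⧸ M) = M.index := rfl
    rwa [h2, hM] at h1
  omega

end Cfsg.Agent.H921.Cov.JA
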