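import Cfsg.Agent.H921.Cov.Orb
import Cfsg.Agent.H921.M22.Facts3
import Cfsg.Agent.S1606

/-!
# S2499, the Mathieu group of degree 22 (helper921)

`noTwo_m22` : the classes of elements of order 11, 7, 8 are pairwise incompatible.
-/

set_option autoImplicit false

namespace Cfsg.Agent.H921.Cov.MTT

open Cfsg Subgroup Cfsg.Agent.H278.Cov
open Cfsg.Agent.H257.Cov (Isol E E_dvd)
open Cfsg.Agent.SporadicA.GolayBase Cfsg.Agent.SporadicA.GolayPerm
open Cfsg.Agent.SporadicStructure.M24El Cfsg.Agent.H921.Spor.M24 Cfsg.Agent.H921.M22.Facts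

abbrev T := Spor.M22

theorem isol_of {r : ℕ} (hr : r.Prime) (hT : ¬ r ^ 2 ∣ Nat.card T) {x₀ : T} (hx₀ : orderOf x₀ = r)
    (hc : Nat.card (centralizer ({x₀} : Set T)) ≤ r) : Isol T r := by
  intro p hp hrp z hz
  have h1 := order_eq hr hT hx₀ hc (g := z) (by rw [hz]; exact dvd_mul_right _ _)
  rw [hz] at h1
  have h2 : p = 1 := Nat.eq_of_mul_eq_mul_left hr.pos (by rw [h1, mul_one])
  exact hp.one_lt.ne' h2

theorem isol11 : Isol T 11 := by
  obtain ⟨x, hx, hx'⟩ := H968.TwoM22.three.eleven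
  exact isol_of (by norm_num) (by rw [card_M22]; norm_num) hx hx'

theorem isol7 : Isol T 7 := by
  obtain ⟨x, hx, hx'⟩ := H968.TwoM22.three.seven
  exact isol_of (by norm_num) (by rw [card_M22]; norm_num) hx hx'

/-! ### action on points -/

theorem idx_mk {P : ℕ} (hP : okM P = true) (p : GolayPt) :
    idx ((mk P : Equiv.Perm GolayPt) p) = papp P (idx p) := by
  rw [coe_mk hP, coe_el (okM.ok hP), idx_permOf]

theorem mk_fix {P : ℕ} (hP : okM P = true) {p : GolayPt} (h : (mk P : Equiv.Perm GolayPt) p = p) :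
    papp P (idx p) = idx p := by
  rw [← idx_mk hP, h]

/-- the fixed points -/
def Fx (g : T) : Set GolayPt := {p | (g : Equiv.Perm GolayPt) p = p}

theorem fix_none (g : T) : (g : Equiv.Perm GolayPt) none = none := g.2.1.2

theorem fix_zero (g : T) : (g : Equiv.Perm GolayPt) (some 0) = some 0 := g.2.2

theorem Fx_conj (g h : T) (p : GolayPt) : (h : Equiv.Perm GolayPt) p ∈ Fx (h * g * h⁻¹) ↔ p ∈ Fx g := by
  have h1 : ((h * g * h⁻¹ : T) : Equiv.Perm GolayPt) ((h : Equiv.Perm GolayPt) p) =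
      (h : Equiv.Perm GolayPt) ((g : Equiv.Perm GolayPt) p) := by
    show ((h : Equiv.Perm GolayPt) * (g : Equiv.Perm GolayPt) * (h : Equiv.Perm GolayPt)⁻¹) _ = _
    simp [Equiv.Perm.mul_apply]
  show _ = _ ↔ _ = _
  rw [h1]
  exact (h : Equiv.Perm GolayPt).injective.eq_iff

/-- the points which are not fixed by all elements -/
def Om : Set GolayPt := {p | p ≠ none ∧ p ≠ some 0}

theorem card_Om : Nat.card Om = 22 := by
  have : Om = ((Finset.univ.filter fun p : GolayPt => p ≠ none ∧ p ≠ some 0 : Finset GolayPt) : Set GolayPt) := by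
    ext p
    simp [Om]
  rw [this, Nat.card_coe_set_eq, Set.ncard_coe_finset]
  decide

theorem Om_smul (g : T) {p : GolayPt} (hp : p ∈ Om) : (g : Equiv.Perm GolayPt) p ∈ Om := by
  refine ⟨fun h => hp.1 ?_, fun h => hp.2 ?_⟩
  · rw [← fix_none g] at h
    exact (g : Equiv.Perm GolayPt).injective h
  · rw [← fix_zero g] at h
    exact (g : Equiv.Perm GolayPt).injective h

/-- elements of order `11` are semiregular -/
theorem free11 {g : T} (hg : orderOf g = 11) {p : GolayPt} (hp : p ∈ Om) : (g : Equiv.Perm GolayPt) p ≠ p := by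
  intro hfix
  have o1 : okM pX = true := okA (by simp)
  have hz : orderOf (mk pX) = 11 :=
    order_mk (by norm_num) o1 (by decide +kernel) (i := 1) (by norm_num) (by decide +kernel)
  have : Fact (Nat.Prime 11) := ⟨by norm_num⟩
  have hf : (Nat.card T).factorization 11 = 1 := by
    have h2 : Nat.card T ≠ 0 := Nat.card_pos.ne'
    have h3 := ((by norm_num : Nat.Prime 11).dvd_iff_one_le_factorization h2).1 (by rw [card_M22]; norm_num)
    have h4 : ¬ 2 ≤ (Nat.card T).factorization 11 := fun h => by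
      have := ((by norm_num : Nat.Prime 11).pow_dvd_iff_le_factorization h2).2 h
      rw [card_M22] at this
      norm_num at this
    omega
  let S : Sylow 11 T := Sylow.ofCard (zpowers g) (by rw [Nat.card_zpowers, hg, hf, pow_one])
  let S₀ : Sylow 11 T := Sylow.ofCard (zpowers (mk pX)) (by rw [Nat.card_zpowers, hz, hf, pow_one])
  obtain ⟨h, hh⟩ := MulAction.exists_smul_eq T S S₀
  have h1 : mk pX ∈ ((h • S : Sylow 11 T) : Subgroup T) := by
    rw [hh]
    exact mem_zpowers _
  rw [Sylow.smul_def] at h1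
  obtain ⟨w, hw, hw2⟩ := h1
  obtain ⟨j, rfl⟩ := mem_zpowers_iff.1 (show w ∈ zpowers g from hw)
  have h2 : p ∈ Fx (g ^ j) := by
    have h3 : ∀ s : T, (s : Equiv.Perm GolayPt) p = p → s ∈ (MulAction.stabilizer (Equiv.Perm GolayPt) p).comap
      T.subtype := fun s hs => hs
    exact (Subgroup.zpow_mem _ (h3 g hfix) j : g ^ j ∈ (MulAction.stabilizer (Equiv.Perm GolayPt) p).comap T.subtype)
  have h3 : h * g ^ j * h⁻¹ = mk pX := hw2
  have h4 : (h : Equiv.Perm GolayPt) p ∈ Fx (mk pX) := by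
    rw [← h3, Fx_conj]
    exact h2
  have h5 := mk_fix o1 h4
  have h6 := Om_smul h hp
  have h7 : ∀ q : GolayPt, papp pX (idx q) = idx q → q ∈ Om → False := by
    have h8 : ∀ q : GolayPt, papp pX (idx q) = idx q → q = none ∨ q = some 0 := by decide +kernel
    intro q hq hq'
    rcases h8 q hq with h | h
    · exact hq'.1 h
    · exact hq'.2 h
  exact h7 _ h5 h6

/-! ### subgroups -/

instance : IsSimpleGroup T := Cfsg.Agent.SporadicA.MathieuRecog.simple_M22

/-- no normal 11-complement in a subgroup with an element of order prime to 11, not 1, 2 -/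
theorem E_ne_one {R : Subgroup T} (hd : 11 ∣ Nat.card R) {x : T} (hx : x ∈ R) (hx11 : ¬ 11 ∣ orderOf x)
    (hx2 : x ^ 2 ≠ 1) : E (Nat.card R) 11 ≠ 1 := by
  intro hE
  have h11 : Nat.Prime 11 := by norm_num
  have hR2 : ¬ 11 ^ 2 ∣ Nat.card R := fun h => by
    have h1 := h.trans (Subgroup.card_subgroup_dvd_card R)
    rw [card_M22] at h1
    norm_num at h1
  obtain ⟨M, hMn, hMi⟩ := exists_compl h11 (isol11.sub R) hR2 hd hE
  have hmem : ∀ g : R, ¬ 11 ∣ orderOf g → g ∈ M := by
    intro g hg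
    apply Cfsg.Agent.H257.Cov.mem_of_coprime_index M
    rw [hMi, Nat.coprime_comm, Nat.Prime.coprime_iff_not_dvd h11]
    exact hg
  have hxo : orderOf (⟨x, hx⟩ : R) = orderOf x := Subgroup.orderOf_mk x hx
  obtain ⟨p, hp⟩ : ∃ p : GolayPt, ((x ^ 2 : T) : Equiv.Perm GolayPt) p ≠ p := by
    by_contra hc
    push Not at hc
    apply hx2
    apply Subtype.ext
    exact Equiv.ext hc
  have hpO : p ∈ Om := by
    constructor
    · rintro rfl
      exact hp (fix_none _)
    · rintro rfl
      exact hp (fix_zero _)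
  obtain ⟨z, hz⟩ : ∃ z : R, z ∉ M := by
    by_contra hc
    push Not at hc
    have : M = ⊤ := by
      rw [eq_top_iff]
      intro z _
      exact hc z
    rw [this, Subgroup.index_top] at hMi
    norm_num at hMi
  have h3 := three_le M h11 hMi hz Om (fun g p hp => Om_smul g hp) (fun g hg p hp => by
    have h4 : 11 ∣ orderOf (g : T) := by
      by_contra hc
      apply hg
      apply hmem
      rwa [Subgroup.orderOf_coe] at hc
    obtain ⟨x₀, hx₀, hx₀'⟩ := H968.TwoM22.three.eleven
    exact free11 (order_eq h11 (by rw [card_M22]; norm_num) hx₀ hx₀' h4) hp) (x := ⟨x, hx⟩)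
    (hmem _ (by rwa [hxo])) hpO
    (fun h => hp (by
      have h5 : (x : Equiv.Perm GolayPt) p = p := h
      show ((x : Equiv.Perm GolayPt) ^ 2) p = p
      rw [pow_two, Equiv.Perm.mul_apply, h5, h5]))
    (fun h => hp (by
      show ((x : Equiv.Perm GolayPt) ^ 2) p = p
      rw [pow_two, Equiv.Perm.mul_apply]
      exact h))
  rw [card_Om] at h3
  norm_num at h3

theorem E11 {R : Subgroup T} (hd : 11 ∣ Nat.card R) : E (Nat.card R) 11 ∣ 5 := by
  have h := E_dvd (by norm_num) isol11 (by rw [card_M22]; norm_num) (by rw [card_M22]; norm_num) R hd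
  rwa [card_M22] at h

theorem five_dvd {R : Subgroup T} (hd : 11 ∣ Nat.card R) (h : E (Nat.card R) 11 = 5) : 5 ∣ Nat.card R := by
  have hR2 : ¬ 11 ^ 2 ∣ Nat.card R := fun h => by
    have h1 := h.trans (Subgroup.card_subgroup_dvd_card R)
    rw [card_M22] at h1
    norm_num at h1
  have h1 := mul_E_dvd (by norm_num) (isol11.sub R) hR2 hd
  rw [h] at h1
  exact (dvd_mul_left _ _).trans h1

theorem E7 {R : Subgroup T} (hd : 7 ∣ Nat.card R) : E (Nat.card R) 7 ∣ 3 := by
  have h := E_dvd (by norm_num) isol7 (by rw [card_M22]; norm_num) (by rw [card_M22]; norm_num) R hd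
  rwa [card_M22] at h

theorem card_dvd (R : Subgroup T) : Nat.card R ∣ 443520 := by
  rw [← card_M22]
  exact Subgroup.card_subgroup_dvd_card R

theorem top_of_card {R : Subgroup T} (h : Nat.card R = 443520) : R = ⊤ :=
  Subgroup.eq_top_of_card_eq R (by rw [h, card_M22])

/-- 11 and 7 -/
theorem top_of_77 {R : Subgroup T} (h11 : 11 ∣ Nat.card R) (h7 : 7 ∣ Nat.card R) : R = ⊤ := by
  have : Fact (Nat.Prime 7) := ⟨by norm_num⟩
  obtain ⟨y, hy⟩ := exists_prime_orderOf_dvd_card' (G := R) 7 h7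
  have hy' : orderOf (y : T) = 7 := by rw [Subgroup.orderOf_coe, hy]
  have h1 := E_ne_one h11 y.2 (by rw [hy']; norm_num) (fun h => by
    have h2 := orderOf_dvd_of_pow_eq_one h
    rw [hy'] at h2
    norm_num at h2)
  have h2 : E (Nat.card R) 11 = 5 := ((Nat.dvd_prime (by norm_num)).1 (E11 h11)).resolve_left h1
  have h3 := (Nat.dvd_prime (by norm_num)).1 (E7 h7)
  obtain ⟨k, hk⟩ : 77 ∣ Nat.card R := Nat.Coprime.mul_dvd_of_dvd_of_dvd (by norm_num) h11 h7
  have h4 : k ∣ 5760 := by
    have h5 := card_dvd R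
    rw [hk] at h5
    exact Nat.dvd_of_mul_dvd_mul_left (by norm_num : 0 < 77) h5
  have h5 := five_dvd h11 h2
  rw [hk] at h2 h3 h5
  have key : ∀ k ∈ Nat.divisors 5760, E (77 * k) 11 = 5 → (E (77 * k) 7 = 1 ∨ E (77 * k) 7 = 3) → 5 ∣ 77 * k →
      k = 5760 := by decide +kernel
  have h6 := key k (Nat.mem_divisors.2 ⟨h4, by norm_num⟩) h2 h3 h5
  exact top_of_card (by rw [hk, h6])

/-- 11 and 8 -/
theorem top_of_88 {R : Subgroup T} (h11 : 11 ∣ Nat.card R) {x : T} (hx : x ∈ R) (hx8 : orderOf x = 8) : R = ⊤ := by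
  have h1 := E_ne_one h11 hx (by rw [hx8]; norm_num) (fun h => by
    have h2 := orderOf_dvd_of_pow_eq_one h
    rw [hx8] at h2
    norm_num at h2)
  by_cases h7 : 7 ∣ Nat.card R
  · exact top_of_77 h11 h7
  have h2 : E (Nat.card R) 11 = 5 := ((Nat.dvd_prime (by norm_num)).1 (E11 h11)).resolve_left h1
  have h8 : 8 ∣ Nat.card R := by
    rw [← hx8, ← Subgroup.orderOf_mk x hx]
    exact _root_.orderOf_dvd_natCard _
  obtain ⟨k, hk⟩ : 88 ∣ Nat.card R := Nat.Coprime.mul_dvd_of_dvd_of_dvd (by norm_num) h11 h8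
  have h4 : k ∣ 5040 := by
    have h5 := card_dvd R
    rw [hk] at h5
    exact Nat.dvd_of_mul_dvd_mul_left (by norm_num : 0 < 88) h5
  have h5 := five_dvd h11 h2
  rw [hk] at h2 h7 h5
  have key : ∀ k ∈ Nat.divisors 5040, E (88 * k) 11 = 5 → ¬ 7 ∣ 88 * k → 5 ∣ 88 * k → k = 90 := by decide +kernel
  have h6 := key k (Nat.mem_divisors.2 ⟨h4, by norm_num⟩) h2 h7 h5
  exfalso
  have hcard : Nat.card R = 7920 := by rw [hk, h6]
  have hK : R.map T.subtype ≤ Cfsg.Agent.SporadicStructure.M22Syl11.G0 := by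
    rintro _ ⟨g, -, rfl⟩
    exact ⟨g.2.1.1, fix_none g, fix_zero g⟩
  have hG0 : Nat.card Cfsg.Agent.SporadicStructure.M22Syl11.G0 = 443520 := by
    have : Cfsg.Agent.SporadicStructure.M22Syl11.G0 = T := by
      ext g
      exact ⟨fun h => ⟨⟨h.1, h.2.1⟩, h.2.2⟩, fun h => ⟨h.1.1, h.1.2, h.2⟩⟩
    rw [this, card_M22]
  have h := (Cfsg.Agent.SporadicStructure.M22NoIndex.card_ne hG0
    (S1606.card_fixing_octad Cfsg.Agent.SporadicStructure.M22NoIndex.B_mem) _ hK).1
  rw [Subgroup.card_map_of_injective T.subtype_injective] at h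
  exact h hcard

/-! ### 7 and 8 -/

theorem ncard_Fx_conj (g h : T) : (Fx (h * g * h⁻¹)).ncard = (Fx g).ncard := by
  have h1 : Fx (h * g * h⁻¹) = (h : Equiv.Perm GolayPt) '' Fx g := by
    ext p
    constructor
    · intro hp
      refine ⟨(h : Equiv.Perm GolayPt)⁻¹ p, ?_, by simp⟩
      rw [← Fx_conj g h]
      simpa using hp
    · rintro ⟨q, hq, rfl⟩
      exact (Fx_conj g h q).2 hq
  rw [h1, Set.ncard_image_of_injective _ (h : Equiv.Perm GolayPt).injective]

theorem ncard_Fx_mk {P : ℕ} (hP : okM P = true) :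
    (Fx (mk P)).ncard = (Finset.univ.filter fun p : GolayPt => papp P (idx p) = idx p).card := by
  have : Fx (mk P) = ((Finset.univ.filter fun p : GolayPt => papp P (idx p) = idx p : Finset GolayPt) :
      Set GolayPt) := by
    ext p
    simp only [Finset.coe_filter, Finset.mem_univ, true_and, Set.mem_ofPred_eq]
    constructor
    · exact mk_fix hP
    · intro h
      show (mk P : Equiv.Perm GolayPt) p = p
      have h1 := congrArg pt ((idx_mk hP p).trans h)
      rwa [pt_idx, pt_idx] at h1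
  rw [this, Set.ncard_coe_finset]

theorem Fx8 : (Fx (mk pu)).ncard = 2 := by
  rw [ncard_Fx_mk oku]
  decide +kernel

theorem Fx84 : (Fx (mk pu ^ 4)).ncard = 8 := by
  rw [← mk_ppow oku, ncard_Fx_mk (okM_ppow oku 4)]
  decide +kernel

theorem okp7 : okM p7 = true := okA (by simp)

theorem Fx7 : (Fx (mk p7)).ncard = 3 := by
  rw [ncard_Fx_mk okp7]
  decide +kernel

theorem order8 : orderOf (mk pu) = 8 := by
  have h1 : orderOf (mk pu) = 2 ^ (2 + 1) := by
    apply orderOf_eq_prime_pow
    · intro h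
      have h2 : (Fx (mk pu ^ 4)).ncard = 24 := by
        have h4 : mk pu ^ 4 = 1 := h
        rw [h4]
        have : Fx (1 : T) = Set.univ := by
          ext p
          simp only [Set.mem_univ, iff_true]
          rfl
        rw [this, Set.ncard_univ]
        simp
      rw [Fx84] at h2
      norm_num at h2
    · have h3 : mk pu ^ 8 = 1 := by
        rw [← mk_ppow oku, show ppow pu 8 = idP by decide +kernel, mk_idP]
      exact h3
  simpa using h1

theorem order7 : orderOf (mk p7) = 7 :=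
  order_mk (by norm_num) okp7 (by decide +kernel) (i := 1) (by norm_num) (by decide +kernel)

theorem base_mem (g : T) : ({none, some 0} : Set GolayPt) ⊆ Fx g := by
  rintro p (rfl | rfl)
  · exact fix_none g
  · exact fix_zero g

/-- an element with two fixed points has no fixed point in `Om` -/
theorem not_fix {g : T} (hg : (Fx g).ncard = 2) {p : GolayPt} (hp : p ∈ Om) : (g : Equiv.Perm GolayPt) p ≠ p := by
  intro h
  have h1 : ({none, some 0, p} : Set GolayPt) ⊆ Fx g := by
    rintro q (rfl | rfl | rfl)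
    · exact fix_none g
    · exact fix_zero g
    · exact h
  have h2 := Set.ncard_le_ncard h1 (Set.toFinite _)
  have h3 : ({none, some 0, p} : Set GolayPt).ncard = 3 := by
    rw [Set.ncard_eq_three]
    exact ⟨none, some 0, p, by simp, hp.1.symm, hp.2.symm, rfl⟩
  omega

theorem inc78_aux {R : Subgroup T} {x y : T} (hx : x ∈ R) (hy : y ∈ R) (hx8 : orderOf x = 8) (hy7 : orderOf y = 7)
    (fx : (Fx x).ncard = 2) (fx4 : (Fx (x ^ 4)).ncard = 8) (fy : (Fx y).ncard = 3) : R = ⊤ := by
  classical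
  by_contra hR
  have h7R : 7 ∣ Nat.card R := by
    rw [← hy7, ← Subgroup.orderOf_mk y hy]
    exact _root_.orderOf_dvd_natCard _
  have h11R : ¬ 11 ∣ Nat.card R := fun h => hR (top_of_77 h h7R)
  -- the fixed point of `y`
  obtain ⟨f, hf, hfu⟩ : ∃ f ∈ Om, (y : Equiv.Perm GolayPt) f = f ∧ ∀ q ∈ Om, (y : Equiv.Perm GolayPt) q = q → q = f := by
    obtain ⟨a, b, c, hab, hac, hbc, habc⟩ := Set.ncard_eq_three.1 fy
    have h1 : (Fx y \ {none, some 0}).ncard = 1 := by
      have h2 := Set.ncard_sdiff_add_ncard_of_subset (base_mem y) (Set.toFinite _)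
      have h3 : ({none, some 0} : Set GolayPt).ncard = 2 := Set.ncard_pair (by simp)
      omega
    obtain ⟨f, hf⟩ := Set.ncard_eq_one.1 h1
    have hf1 : f ∈ Fx y \ {none, some 0} := by rw [hf]; rfl
    refine ⟨f, ⟨fun h => hf1.2 (Or.inl h), fun h => hf1.2 (Or.inr h)⟩, hf1.1, fun q hq hqy => ?_⟩
    have h2 : q ∈ Fx y \ {none, some 0} := ⟨hqy, by rintro (h | h); exacts [hq.1 h, hq.2 h]⟩
    rw [hf] at h2
    exact h2
  let O := MulAction.orbit R f
  have hO : ∀ q : O, (q : GolayPt) ∈ Om := by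
    rintro ⟨_, g, rfl⟩
    exact Om_smul g hf
  let x' : R := ⟨x, hx⟩
  let y' : R := ⟨y, hy⟩
  have c2 : Nat.card O % 2 = 0 := by
    have : Fact (Nat.Prime 2) := ⟨by norm_num⟩
    have h1 : IsPGroup 2 (zpowers x') := IsPGroup.of_card (n := 3) (by
      rw [Nat.card_zpowers, Subgroup.orderOf_mk, hx8]
      norm_num)
    have h2 := h1.card_modEq_card_fixedPoints O
    have h3 : IsEmpty (MulAction.fixedPoints (zpowers x') O) := ⟨fun q => by
      have h4 := q.2 ⟨x', mem_zpowers x'⟩
      have h5 : (x : Equiv.Perm GolayPt) (q : O) = (q : O) := congrArg Subtype.val h4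
      exact not_fix fx (hO _) h5⟩
    rw [Nat.card_eq_zero.2 (Or.inl h3)] at h2
    exact h2
  have c7 : Nat.card O % 7 = 1 := by
    have : Fact (Nat.Prime 7) := ⟨by norm_num⟩
    have h1 : IsPGroup 7 (zpowers y') := IsPGroup.of_card (n := 1) (by
      rw [Nat.card_zpowers, Subgroup.orderOf_mk, hy7]
      norm_num)
    have h2 := h1.card_modEq_card_fixedPoints O
    have h3 : Nat.card (MulAction.fixedPoints (zpowers y') O) = 1 := by
      have hfO : (⟨f, MulAction.mem_orbit_self f⟩ : O) ∈ MulAction.fixedPoints (zpowers y') O := by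
        rintro ⟨_, j, rfl⟩
        apply Subtype.ext
        have h6 : ∀ s : R, ((s : T) : Equiv.Perm GolayPt) f = f → s ∈ MulAction.stabilizer R f := fun s hs => hs
        exact Subgroup.zpow_mem _ (h6 y' hfu.1) j
      rw [Nat.card_eq_one_iff_unique]
      refine ⟨⟨fun a b => ?_⟩, ⟨_, hfO⟩⟩
      have key : ∀ a : MulAction.fixedPoints (zpowers y') O, ((a : O) : GolayPt) = f := by
        intro a
        have h4 := a.2 ⟨y', mem_zpowers y'⟩
        have h5 : (y : Equiv.Perm GolayPt) (a : O) = (a : O) := congrArg Subtype.val h4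
        exact hfu.2 _ (hO _) h5
      apply Subtype.ext
      apply Subtype.ext
      rw [key a, key b]
    rw [h3] at h2
    exact h2
  have c22 : Nat.card O ≤ 22 := by
    rw [← card_Om]
    exact Nat.card_le_card_of_injective (fun q : O => (⟨q, hO q⟩ : Om)) (fun a b hab =>
      Subtype.ext (congrArg (fun z : Om => (z : GolayPt)) hab))
  have cd : Nat.card O ∣ Nat.card R := by
    rw [Nat.card_coe_set_eq, ← MulAction.index_stabilizer]
    exact Subgroup.index_dvd_card _
  have c8 : Nat.card O = 8 := by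
    have h1 : Nat.card O = 8 ∨ Nat.card O = 22 := by omega
    rcases h1 with h1 | h1
    · exact h1
    · rw [h1] at cd
      exact absurd ((by norm_num : 11 ∣ 22).trans cd) h11R
  -- the sign
  let s : R →* ℤˣ := Equiv.Perm.sign.comp (MulAction.toPermHom R O)
  have hs : s x' = -1 := by
    have h1 : ∃ q : O, ((MulAction.toPermHom R O x') ^ 4) q ≠ q := by
      by_contra hc
      push Not at hc
      have h2 : ({none, some 0} : Set GolayPt) ∪ O ⊆ Fx (x ^ 4) := by
        rintro q (hq | hq)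
        · exact base_mem _ hq
        · have h3 := hc ⟨q, hq⟩
          rw [← map_pow] at h3
          exact congrArg Subtype.val h3
      have h3 := Set.ncard_le_ncard h2 (Set.toFinite _)
      rw [Set.ncard_union_eq (by
        rw [Set.disjoint_left]
        rintro q (rfl | rfl) hq
        · exact (hO ⟨_, hq⟩).1 rfl
        · exact (hO ⟨_, hq⟩).2 rfl) (Set.toFinite _) (Set.toFinite _), Set.ncard_pair (by simp),
        ← Nat.card_coe_set_eq, c8, fx4] at h3
      omega
    obtain ⟨q, hq⟩ := h1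
    refine neg_one_of_regular ?_ _ ?_ hq
    · rw [← Nat.card_eq_fintype_card, c8]
    · rw [← map_pow]
      have : x' ^ 8 = 1 := Subtype.ext (by
        show x ^ 8 = 1
        rw [← hx8, pow_orderOf_eq_one])
      rw [this, map_one]
  have hsy : s y' = 1 := by
    have h1 : s y' ^ 7 = 1 := by
      rw [← map_pow]
      have : y' ^ 7 = 1 := Subtype.ext (by
        show y ^ 7 = 1
        rw [← hy7, pow_orderOf_eq_one])
      rw [this, map_one]
    rcases Int.units_eq_one_or (s y') with h | h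
    · exact h
    · rw [h] at h1
      exact absurd h1 (by decide)
  have hidx : s.ker.index = 2 := by
    rw [Subgroup.index_ker]
    have h1 : s.range = ⊤ := by
      rw [eq_top_iff]
      rintro a -
      rcases Int.units_eq_one_or a with h | h
      · exact ⟨1, by rw [map_one, h]⟩
      · exact ⟨x', by rw [hs, h]⟩
    rw [h1, Nat.card_congr Subgroup.topEquiv.toEquiv]
    simp
  have hcR := s.ker.card_mul_index
  rw [hidx] at hcR
  have h7K : 7 ∣ Nat.card (s.ker.map R.subtype) := by
    have h1 : y ∈ s.ker.map R.subtype := ⟨y', hsy, rfl⟩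
    rw [← hy7, ← Subgroup.orderOf_mk y h1]
    exact _root_.orderOf_dvd_natCard _
  have e1 := (Nat.dvd_prime (by norm_num)).1 (E7 h7R)
  have e2 := (Nat.dvd_prime (by norm_num)).1 (E7 h7K)
  rw [Subgroup.card_map_of_injective R.subtype_injective] at h7K e2
  rw [← hcR] at e1
  obtain ⟨k, hk⟩ := h7K
  unfold E at e1 e2
  rw [hk] at e1 e2
  omega

theorem ord_conj (g x : T) : orderOf (g * x * g⁻¹) = orderOf x :=
  orderOf_injective (MulAut.conj g).toMonoidHom (MulAut.conj g).injective x

theorem dvd_of_mem {R : Subgroup T} {x : T} (hx : x ∈ R) : orderOf x ∣ Nat.card R := by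
  rw [← Subgroup.orderOf_mk x hx]
  exact _root_.orderOf_dvd_natCard _

theorem inc78 : Inc (mk p7) (mk pu) := by
  intro H hH
  by_contra hc
  rw [not_or] at hc
  obtain ⟨g, hg⟩ := not_av hc.1
  obtain ⟨k, hk⟩ := not_av hc.2
  refine hH (inc78_aux hk hg ((ord_conj _ _).trans order8) ((ord_conj _ _).trans order7) ?_ ?_ ?_)
  · rw [ncard_Fx_conj, Fx8]
  · rw [conj_pow, ncard_Fx_conj, Fx84]
  · rw [ncard_Fx_conj, Fx7]

theorem inc11 {z : T} (hz : orderOf z = 11) {x : T} (h : orderOf x = 7 ∨ orderOf x = 8) : Inc z x := by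
  intro H hH
  by_contra hc
  rw [not_or] at hc
  obtain ⟨g, hg⟩ := not_av hc.1
  obtain ⟨k, hk⟩ := not_av hc.2
  have h1 : 11 ∣ Nat.card H := by
    have := dvd_of_mem hg
    rwa [ord_conj, hz] at this
  rcases h with h | h
  · have h2 := dvd_of_mem hk
    rw [ord_conj, h] at h2
    exact hH (top_of_77 h1 h2)
  · exact hH (top_of_88 h1 hk ((ord_conj _ _).trans h))

theorem noTwo : NoTwo T := by
  obtain ⟨z, hz, -⟩ := H968.TwoM22.three.eleven
  exact noTwo_of_three (inc11 hz (Or.inl order7)) inc78 (inc11 hz (Or.inr order8))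

/-- **S2499 for the Mathieu group of degree 22** -/
theorem noTwo_m22 {G : Type*} [Group G] (h : Spor.IsoM22 G) : NoTwo G := by
  obtain ⟨e⟩ := h
  exact noTwo.of_surjective e.symm.toMonoidHom e.symm.surjective

end Cfsg.Agent.H921.Cov.MTT
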